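import Cfsg.Agent.Classical.Linear.SylowP
import Cfsg.Agent.SL2.Sylow

/-!
# Sylow subgroups of `GL_n` in the natural characteristic

They lie in the special linear group; numbers, normalizers and centralizers for `n = 2`.
-/

set_option autoImplicit false

namespace CfsgLib.GlSylowChar

open Matrix

variable {F : Type*} [Field F] [Fintype F] {p : ℕ} [Fact p.Prime] [CharP F p]

theorem det_eq_one_of_isPGroup {n : ℕ} {P : Subgroup (GL (Fin n) F)} (hP : IsPGroup p P)
    {g : GL (Fin n) F} (hg : g ∈ P) : Matrix.GeneralLinearGroup.det g = 1 := by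
  obtain ⟨k, hk⟩ := hP ⟨g, hg⟩
  have hk' : g ^ p ^ k = 1 := congrArg Subtype.val hk
  have h1 : ((Matrix.GeneralLinearGroup.det g : Fˣ) : F) ^ p ^ k = 1 := by
    rw [← Units.val_pow_eq_pow_val, ← map_pow, hk', map_one, Units.val_one]
  haveI : ExpChar F p := ExpChar.prime Fact.out
  exact Units.ext (iterateFrobenius_inj F p k (by simpa [iterateFrobenius_def] using h1))

theorem le_range_toGL {n : ℕ} {P : Subgroup (GL (Fin n) F)} (hP : IsPGroup p P) :
    P ≤ (Matrix.SpecialLinearGroup.toGL :
      Matrix.SpecialLinearGroup (Fin n) F →* GL (Fin n) F).range :=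
  fun _ hg => CfsgLib.Classical.Linear.mem_range_toGL.2 (det_eq_one_of_isPGroup hP hg)

/-- Restricting a Sylow `p`-subgroup of `GL_n` to `SL_n`. -/
noncomputable def toSLSylow {n : ℕ} (P : Sylow p (GL (Fin n) F)) :
    Sylow p (Matrix.SpecialLinearGroup (Fin n) F) :=
  P.comapOfInjective Matrix.SpecialLinearGroup.toGL Matrix.SpecialLinearGroup.toGL_injective
    (le_range_toGL P.isPGroup')

theorem map_toSLSylow {n : ℕ} (P : Sylow p (GL (Fin n) F)) :
    ((toSLSylow P : Sylow p _) : Subgroup (Matrix.SpecialLinearGroup (Fin n) F)).map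
      Matrix.SpecialLinearGroup.toGL = (P : Subgroup (GL (Fin n) F)) := by
  rw [toSLSylow, Sylow.coe_comapOfInjective]
  exact Subgroup.map_comap_eq_self (le_range_toGL P.isPGroup')

theorem toSLSylow_bijective {n : ℕ} :
    Function.Bijective (toSLSylow : Sylow p (GL (Fin n) F) → _) := by
  refine ⟨fun P Q h => Sylow.ext ?_, fun R => ?_⟩
  · rw [← map_toSLSylow P, h, map_toSLSylow]
  · obtain ⟨P, hP⟩ := (R.isPGroup'.map Matrix.SpecialLinearGroup.toGL).exists_le_sylow
    refine ⟨P, Sylow.ext (R.3 (toSLSylow P).isPGroup' ?_)⟩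
    rw [toSLSylow, Sylow.coe_comapOfInjective]
    exact Subgroup.map_le_iff_le_comap.1 hP

theorem card_sylow_gl (n : ℕ) (P : Sylow p (GL (Fin n) F)) :
    Nat.card P = Fintype.card F ^ (n * (n - 1) / 2) := by
  rw [← Finset.sum_range_id, ← Fin.sum_univ_eq_sum_range,
    Nat.card_congr (P.equiv (CfsgLib.Classical.Linear.upperSylow n F p)).toEquiv]
  show Nat.card (CfsgLib.Classical.Linear.upperUnitri n F) = _
  rw [CfsgLib.Classical.Linear.card_upperUnitri, Nat.card_eq_fintype_card]

theorem card_sylow_gl_two : Nat.card (Sylow p (GL (Fin 2) F)) = Fintype.card F + 1 := by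
  rw [Nat.card_congr (Equiv.ofBijective _ (toSLSylow_bijective (p := p) (n := 2)))]
  exact CfsgLib.SL2.card_sylow_char p

theorem sylow_gl_two_inf {P Q : Sylow p (GL (Fin 2) F)} (h : P ≠ Q) :
    (P : Subgroup (GL (Fin 2) F)) ⊓ (Q : Subgroup (GL (Fin 2) F)) = ⊥ := by
  rw [← map_toSLSylow P, ← map_toSLSylow Q,
    ← Subgroup.map_inf _ _ _ Matrix.SpecialLinearGroup.toGL_injective,
    (CfsgLib.SL2.sylow_pair (toSLSylow_bijective.1.ne h)).1, Subgroup.map_bot]

theorem card_normalizer_gl_two (P : Sylow p (GL (Fin 2) F)) :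
    Nat.card (Subgroup.normalizer ((P : Subgroup (GL (Fin 2) F)) : Set (GL (Fin 2) F))) =
      Fintype.card F * (Fintype.card F - 1) ^ 2 := by
  have h := (Subgroup.normalizer
    ((P : Subgroup (GL (Fin 2) F)) : Set (GL (Fin 2) F))).card_mul_index
  rw [show (Subgroup.normalizer ((P : Subgroup (GL (Fin 2) F)) : Set (GL (Fin 2) F))).index =
      Nat.card (Sylow p (GL (Fin 2) F)) from P.card_eq_index_normalizer.symm, card_sylow_gl_two,
    CfsgLib.Classical.Linear.card_gl_eq, CfsgLib.Classical.Linear.natCard_units,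
    CfsgLib.SL2.card_SL] at h
  apply Nat.eq_of_mul_eq_mul_right (Nat.succ_pos (Fintype.card F))
  rw [h, ← one_pow 2, Nat.sq_sub_sq, one_pow, Nat.succ_eq_add_one]
  ring

/-- `(a, b) ↦ [[a, b], [0, a]]`. -/
noncomputable def upperShift (x : Fˣ × F) : GL (Fin 2) F :=
  Matrix.GeneralLinearGroup.mk'' !![(x.1 : F), x.2; 0, (x.1 : F)] (by simp [Matrix.det_fin_two_of])

theorem val_upperShift (x : Fˣ × F) :
    (upperShift x).val = !![(x.1 : F), x.2; 0, (x.1 : F)] := rfl

theorem centralizer_unipotent_eq {t : F} (ht : t ≠ 0) {g : GL (Fin 2) F} :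
    g ∈ Subgroup.centralizer ({Matrix.SpecialLinearGroup.toGL (CfsgLib.SL2.u t)} :
      Set (GL (Fin 2) F)) ↔ g ∈ Set.range (upperShift (F := F)) := by
  rw [Subgroup.mem_centralizer_singleton_iff, Units.ext_iff, Units.val_mul, Units.val_mul]
  have hu : (Matrix.SpecialLinearGroup.toGL (CfsgLib.SL2.u t) : GL (Fin 2) F).val =
      !![1, t; 0, 1] := by
    ext i j
    fin_cases i <;> fin_cases j <;> simp
  rw [hu]
  constructor
  · intro h
    have h00 := congrFun (congrFun h 0) 0
    have h01 := congrFun (congrFun h 0) 1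
    simp [Matrix.mul_apply, Fin.sum_univ_two] at h00 h01
    have h10 : g.val 1 0 = 0 := by
      rcases h00 with h | h
      · exact absurd h ht
      · exact h
    have h11 : g.val 1 1 = g.val 0 0 := by
      apply mul_left_cancel₀ ht
      linear_combination -h01
    have hne : g.val 0 0 ≠ 0 := by
      intro h0
      apply Matrix.GeneralLinearGroup.det_ne_zero g
      rw [Matrix.det_fin_two, h10, h0]
      simp
    refine ⟨(Units.mk0 _ hne, g.val 0 1), Units.ext ?_⟩
    rw [val_upperShift]
    ext i j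
    fin_cases i <;> fin_cases j <;> simp [h10, h11]
  · rintro ⟨x, rfl⟩
    rw [val_upperShift]
    ext i j
    fin_cases i <;> fin_cases j <;> simp [Matrix.mul_apply, Fin.sum_univ_two] <;> ring

theorem card_centralizer_gl_two (P : Sylow p (GL (Fin 2) F)) {a : GL (Fin 2) F} (ha : a ∈ P)
    (ha1 : a ≠ 1) :
    Nat.card (Subgroup.centralizer ({a} : Set (GL (Fin 2) F))) =
      Fintype.card F * (Fintype.card F - 1) := by
  obtain ⟨c, hc⟩ := CfsgLib.SL2.exists_conj_uSylow (toSLSylow P)
  have ha' : a ∈ (P : Subgroup (GL (Fin 2) F)) := ha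
  rw [← map_toSLSylow P, hc] at ha'
  obtain ⟨_, ⟨_, ht, rfl⟩, rfl⟩ := ha'
  obtain ⟨t, rfl⟩ := CfsgLib.SL2.mem_U.1 ht
  have ht0 : t ≠ 0 := by
    intro h0
    exact ha1 (by rw [h0, CfsgLib.SL2.u_zero, map_one, map_one])
  set C : GL (Fin 2) F := Matrix.SpecialLinearGroup.toGL c
  set v : GL (Fin 2) F := Matrix.SpecialLinearGroup.toGL (CfsgLib.SL2.u t)
  have he : Matrix.SpecialLinearGroup.toGL ((MulAut.conj c).toMonoidHom (CfsgLib.SL2.u t)) =
      C * v * C⁻¹ := by
    simp [C, v, MulAut.conj_apply]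
  have hmap : Subgroup.centralizer ({C * v * C⁻¹} : Set (GL (Fin 2) F)) =
      (Subgroup.centralizer ({v} : Set (GL (Fin 2) F))).map (MulAut.conj C).toMonoidHom := by
    ext g
    rw [Subgroup.mem_map_equiv, MulAut.conj_symm_apply, Subgroup.mem_centralizer_singleton_iff,
      Subgroup.mem_centralizer_singleton_iff]
    constructor <;> intro h
    · have := congrArg (fun z => C⁻¹ * z * C) h
      simpa [mul_assoc] using this
    · have := congrArg (fun z => C * z * C⁻¹) h
      simpa [mul_assoc] using this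
  rw [he, hmap, Subgroup.card_map_of_injective (MulAut.conj C).injective]
  have hset : ((Subgroup.centralizer ({v} : Set (GL (Fin 2) F))) : Set (GL (Fin 2) F)) =
      Set.range (upperShift (F := F)) := Set.ext fun g => centralizer_unipotent_eq ht0
  have hinj : Function.Injective (upperShift (F := F)) := by
    intro x y h
    have h' := congrArg Units.val h
    rw [val_upperShift, val_upperShift] at h'
    have h00 := congrFun (congrFun h' 0) 0
    have h01 := congrFun (congrFun h' 0) 1
    exact Prod.ext (Units.ext (by simpa using h00)) (by simpa using h01)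
  rw [← SetLike.coe_sort_coe, hset, Nat.card_range_of_injective hinj, Nat.card_prod,
    CfsgLib.Classical.Linear.natCard_units, Nat.card_eq_fintype_card, mul_comm]

end CfsgLib.GlSylowChar
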