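import Mathlib

/-!
# `PGL(2)` on the projective line

Sharp 3-transitivity, and 3-transitivity of `SL(2)` over finite fields of characteristic two.
-/

set_option autoImplicit false

namespace CfsgLib.LineTriple

open Matrix Projectivization

variable {F : Type*} [Field F]

theorem vec_ne_zero_of_zero {v : Fin 2 → F} {a : F} (h : v 0 = a) (ha : a ≠ 0) : v ≠ 0 :=
  fun h0 => ha (by rw [← h, h0]; rfl)

theorem vec_ne_zero_of_one {v : Fin 2 → F} {a : F} (h : v 1 = a) (ha : a ≠ 0) : v ≠ 0 :=
  fun h0 => ha (by rw [← h, h0]; rfl)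

/-- The point `[1 : 0]`. -/
def ptX : Projectivization F (Fin 2 → F) :=
  Projectivization.mk F ![1, 0] (vec_ne_zero_of_zero (a := (1 : F)) rfl one_ne_zero)

/-- The point `[0 : 1]`. -/
def ptY : Projectivization F (Fin 2 → F) :=
  Projectivization.mk F ![0, 1] (vec_ne_zero_of_one (a := (1 : F)) rfl one_ne_zero)

/-- The point `[1 : c]`. -/
def ptC (c : F) : Projectivization F (Fin 2 → F) :=
  Projectivization.mk F ![1, c] (vec_ne_zero_of_zero (a := (1 : F)) rfl one_ne_zero)

theorem gl_smul_vec (g : GL (Fin 2) F) (v : Fin 2 → F) : g • v = g.val *ᵥ v := rfl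

theorem sl_smul_vec (g : Matrix.SpecialLinearGroup (Fin 2) F) (v : Fin 2 → F) :
    g • v = g.1 *ᵥ v := rfl

theorem pts_ne {c : F} (hc : c ≠ 0) :
    ptX (F := F) ≠ ptY ∧ ptX ≠ ptC c ∧ ptY ≠ ptC c := by
  refine ⟨?_, ?_, ?_⟩ <;> intro h <;>
    obtain ⟨a, ha⟩ := (mk_eq_mk_iff' F _ _ _ _).1 h <;>
    have h0 := congrFun ha 0 <;> have h1 := congrFun ha 1 <;> simp at h0 h1
  · rcases h1 with h | h
    · exact absurd (h0.symm.trans h) one_ne_zero
    · exact hc h
  · rw [h0, zero_mul] at h1
    exact zero_ne_one h1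

/-- Every triple of distinct points is an image of the standard triple. -/
theorem exists_std {a b c : Projectivization F (Fin 2 → F)} (hab : a ≠ b) (hac : a ≠ c)
    (hbc : b ≠ c) :
    ∃ g : GL (Fin 2) F, g • ptX = a ∧ g • ptY = b ∧ g • ptC 1 = c := by
  induction a using Projectivization.ind with | _ u hu => ?_
  induction b using Projectivization.ind with | _ v hv => ?_
  induction c using Projectivization.ind with | _ w hw => ?_
  have hdet : IsUnit (!![u 0, v 0; u 1, v 1]).det := by
    rw [isUnit_iff_ne_zero, Matrix.det_fin_two_of]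
    intro hd
    apply hab
    rw [mk_eq_mk_iff']
    by_cases h0 : v 0 = 0
    · have h1 : v 1 ≠ 0 := fun h1 => hv (funext fun i => by fin_cases i <;> assumption)
      rw [h0, zero_mul, sub_zero] at hd
      have hu0 : u 0 = 0 := (mul_eq_zero.1 hd).resolve_right h1
      refine ⟨u 1 / v 1, funext fun i => ?_⟩
      fin_cases i
      · simp [h0, hu0]
      · simp [h1]
    · refine ⟨u 0 / v 0, funext fun i => ?_⟩
      fin_cases i
      · simp [h0]
      · simp only [Fin.mk_one, Pi.smul_apply, smul_eq_mul]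
        field_simp
        linear_combination hd
  obtain ⟨α, β, hw0, hw1⟩ : ∃ α β : F, α * u 0 + β * v 0 = w 0 ∧ α * u 1 + β * v 1 = w 1 := by
    set co := (!![u 0, v 0; u 1, v 1])⁻¹ *ᵥ w with hco
    have h := congrArg (fun M => M *ᵥ w) (Matrix.mul_nonsing_inv _ hdet)
    simp only [← mulVec_mulVec, one_mulVec, ← hco] at h
    refine ⟨co 0, co 1, ?_, ?_⟩
    · have := congrFun h 0
      simp [mulVec, dotProduct, Fin.sum_univ_two] at this
      linear_combination this
    · have := congrFun h 1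
      simp [mulVec, dotProduct, Fin.sum_univ_two] at this
      linear_combination this
  have hα : α ≠ 0 := by
    rintro rfl
    apply hbc
    symm
    rw [mk_eq_mk_iff']
    exact ⟨β, funext fun i => by fin_cases i <;> simp_all⟩
  have hβ : β ≠ 0 := by
    rintro rfl
    apply hac
    symm
    rw [mk_eq_mk_iff']
    exact ⟨α, funext fun i => by fin_cases i <;> simp_all⟩
  have hdet' : IsUnit (!![α * u 0, β * v 0; α * u 1, β * v 1]).det := by
    rw [isUnit_iff_ne_zero, Matrix.det_fin_two_of] at hdet ⊢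
    intro h
    have h' : (α * β) * (u 0 * v 1 - v 0 * u 1) = 0 := by linear_combination h
    exact hdet ((mul_eq_zero.1 h').resolve_left (mul_ne_zero hα hβ))
  refine ⟨Matrix.GeneralLinearGroup.mk'' _ hdet', ?_, ?_, ?_⟩
  · rw [ptX, smul_mk, mk_eq_mk_iff', gl_smul_vec]
    exact ⟨α, funext fun i => by fin_cases i <;> simp [mulVec, dotProduct, Fin.sum_univ_two]⟩
  · rw [ptY, smul_mk, mk_eq_mk_iff', gl_smul_vec]
    exact ⟨β, funext fun i => by fin_cases i <;> simp [mulVec, dotProduct, Fin.sum_univ_two]⟩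
  · rw [ptC, smul_mk, mk_eq_mk_iff', gl_smul_vec]
    exact ⟨1, funext fun i => by
      fin_cases i <;> simp [mulVec, dotProduct, Fin.sum_univ_two, hw0, hw1]⟩

theorem exists_gl_map {a b c a' b' c' : Projectivization F (Fin 2 → F)}
    (hab : a ≠ b) (hac : a ≠ c) (hbc : b ≠ c) (hab' : a' ≠ b') (hac' : a' ≠ c') (hbc' : b' ≠ c') :
    ∃ g : GL (Fin 2) F, g • a = a' ∧ g • b = b' ∧ g • c = c' := by
  obtain ⟨g, hga, hgb, hgc⟩ := exists_std hab hac hbc
  obtain ⟨k, hka, hkb, hkc⟩ := exists_std hab' hac' hbc'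
  refine ⟨k * g⁻¹, ?_, ?_, ?_⟩ <;> rw [mul_smul]
  · rw [← hga, inv_smul_smul, hka]
  · rw [← hgb, inv_smul_smul, hkb]
  · rw [← hgc, inv_smul_smul, hkc]

theorem diag_of_fix {g : GL (Fin 2) F} (hX : g • (ptX (F := F)) = ptX) (hY : g • (ptY (F := F)) = ptY) :
    g.val 1 0 = 0 ∧ g.val 0 1 = 0 := by
  rw [ptX, smul_mk, mk_eq_mk_iff', gl_smul_vec] at hX
  rw [ptY, smul_mk, mk_eq_mk_iff', gl_smul_vec] at hY
  obtain ⟨x, hx⟩ := hX
  obtain ⟨y, hy⟩ := hY
  have h1 := congrFun hx 1
  have h2 := congrFun hy 0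
  simp [mulVec, dotProduct, Fin.sum_univ_two] at h1 h2
  exact ⟨h1.symm, h2.symm⟩

/-- Only scalars fix three points. -/
theorem mem_center_of_fix_std {g : GL (Fin 2) F} (hX : g • (ptX (F := F)) = ptX) (hY : g • (ptY (F := F)) = ptY)
    (hC : g • (ptC (1 : F)) = ptC 1) : g ∈ Subgroup.center (GL (Fin 2) F) := by
  obtain ⟨h10, h01⟩ := diag_of_fix hX hY
  rw [ptC, smul_mk, mk_eq_mk_iff', gl_smul_vec] at hC
  obtain ⟨z, hz⟩ := hC
  have h0 := congrFun hz 0
  have h1 := congrFun hz 1
  simp [mulVec, dotProduct, Fin.sum_univ_two, h10, h01] at h0 h1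
  have hne : g.val 0 0 ≠ 0 := fun h => by
    apply Matrix.GeneralLinearGroup.det_ne_zero g
    rw [Matrix.det_fin_two, h, h01]
    simp
  rw [Matrix.GeneralLinearGroup.center_eq_range_scalar]
  refine ⟨Units.mk0 _ hne, Units.ext ?_⟩
  ext i j
  fin_cases i <;> fin_cases j <;> simp [h10, h01, ← h0, ← h1]

theorem pgl_sharply :
    MulAction.IsMultiplyPretransitive (Matrix.ProjGenLinGroup (Fin 2) F)
        (Projectivization F (Fin 2 → F)) 3 ∧
      ∀ (g : Matrix.ProjGenLinGroup (Fin 2) F) (a b c : Projectivization F (Fin 2 → F)),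
        a ≠ b → a ≠ c → b ≠ c → g • a = a → g • b = b → g • c = c → g = 1 := by
  have hsm : ∀ (g : GL (Fin 2) F) (p : Projectivization F (Fin 2 → F)),
      Matrix.ProjGenLinGroup.mk g • p = g • p := fun _ _ => rfl
  refine ⟨(MulAction.isMultiplyPretransitive_iff).2 fun {x y} => ?_, ?_⟩
  · obtain ⟨g, h0, h1, h2⟩ := exists_gl_map (a := x 0) (b := x 1) (c := x 2) (a' := y 0) (b' := y 1)
      (c' := y 2) (by simp) (by simp) (by simp) (by simp) (by simp) (by simp)
    refine ⟨Matrix.ProjGenLinGroup.mk g, Function.Embedding.ext fun i => ?_⟩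
    rw [Function.Embedding.coe_smul, Pi.smul_apply, hsm]
    fin_cases i <;> assumption
  · intro g a b c hab hac hbc ha hb hc
    obtain ⟨k, rfl, rfl, rfl⟩ := exists_std hab hac hbc
    obtain ⟨g, rfl⟩ := Matrix.ProjGenLinGroup.mk_surjective g
    rw [hsm] at ha hb hc
    have key : ∀ p : Projectivization F (Fin 2 → F), g • k • p = k • p →
        (k⁻¹ * g * k) • p = p := fun p hp => by rw [mul_smul, mul_smul, hp, inv_smul_smul]
    have := mem_center_of_fix_std (key _ ha) (key _ hb) (key _ hc)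
    rw [Matrix.ProjGenLinGroup.mk_eq_one]
    have h2 := (inferInstance : (Subgroup.center (GL (Fin 2) F)).Normal).conj_mem _ this k
    simpa [mul_assoc] using h2

theorem sl_three_iff [Fintype F] :
    MulAction.IsMultiplyPretransitive (Matrix.SpecialLinearGroup (Fin 2) F)
      (Projectivization F (Fin 2 → F)) 3 ↔ ringChar F = 2 := by
  classical
  constructor
  · intro h
    by_contra h2
    obtain ⟨c, hc⟩ := FiniteField.exists_nonsquare h2
    have hc0 : c ≠ 0 := fun h0 => hc (h0 ▸ IsSquare.zero)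
    obtain ⟨hXY, hXC, hYC⟩ := pts_ne (F := F) one_ne_zero
    obtain ⟨hXY', hXC', hYC'⟩ := pts_ne (F := F) hc0
    let x : Fin 3 ↪ Projectivization F (Fin 2 → F) := ⟨![ptX, ptY, ptC 1], fun i j hij => by
      fin_cases i <;> fin_cases j <;> first
        | rfl
        | exact absurd hij (by simp [hXY, hXC, hYC, hXY.symm, hXC.symm, hYC.symm])⟩
    let y : Fin 3 ↪ Projectivization F (Fin 2 → F) := ⟨![ptX, ptY, ptC c], fun i j hij => by
      fin_cases i <;> fin_cases j <;> first
        | rfl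
        | exact absurd hij (by simp [hXY', hXC', hYC', hXY'.symm, hXC'.symm, hYC'.symm])⟩
    obtain ⟨g, hg⟩ := MulAction.isMultiplyPretransitive_iff.1 h (x := x) (y := y)
    have hx : ∀ i, x i = (![ptX, ptY, ptC 1] : Fin 3 → Projectivization F (Fin 2 → F)) i := fun _ => rfl
    have hy : ∀ i, y i = (![ptX, ptY, ptC c] : Fin 3 → Projectivization F (Fin 2 → F)) i := fun _ => rfl
    have h0 : g • (ptX (F := F)) = ptX := by
      have h' := DFunLike.congr_fun hg 0
      rw [Function.Embedding.smul_apply, hx, hy] at h'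
      simpa using h'
    have h1 : g • (ptY (F := F)) = ptY := by
      have h' := DFunLike.congr_fun hg 1
      rw [Function.Embedding.smul_apply, hx, hy] at h'
      simpa using h'
    have h2' : g • ptC 1 = ptC c := by
      have h' := DFunLike.congr_fun hg 2
      rw [Function.Embedding.smul_apply, hx, hy] at h'
      simpa using h'
    rw [ptX, smul_mk, mk_eq_mk_iff', sl_smul_vec] at h0
    rw [ptY, smul_mk, mk_eq_mk_iff', sl_smul_vec] at h1
    rw [ptC, ptC, smul_mk, mk_eq_mk_iff', sl_smul_vec] at h2'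
    obtain ⟨r, hr⟩ := h0
    obtain ⟨s, hs⟩ := h1
    obtain ⟨t, ht⟩ := h2'
    have e10 := congrFun hr 1
    have e01 := congrFun hs 0
    have e0 := congrFun ht 0
    have e1 := congrFun ht 1
    simp [mulVec, dotProduct, Fin.sum_univ_two] at e10 e01 e0 e1
    rw [← e01, add_zero] at e0
    rw [← e10, zero_add, e0] at e1
    have hdet := g.2
    rw [Matrix.det_fin_two, ← e01, ← e10, ← e1] at hdet
    simp at hdet
    apply hc
    exact ⟨g.1 0 0 * c, by linear_combination -c * hdet⟩
  · intro h2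
    refine (MulAction.isMultiplyPretransitive_iff).2 fun {x y} => ?_
    obtain ⟨g, h0, h1, h2'⟩ := exists_gl_map (a := x 0) (b := x 1) (c := x 2) (a' := y 0)
      (b' := y 1) (c' := y 2) (by simp) (by simp) (by simp) (by simp) (by simp) (by simp)
    obtain ⟨r, hr⟩ := FiniteField.isSquare_of_char_two h2 g.val.det
    have hr0 : r ≠ 0 := fun h => Matrix.GeneralLinearGroup.det_ne_zero g (by simp [hr, h])
    have hd : (r⁻¹ • g.val).det = 1 := by
      rw [Matrix.det_smul, Fintype.card_fin, hr]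
      field_simp
    let S : Matrix.SpecialLinearGroup (Fin 2) F := ⟨r⁻¹ • g.val, hd⟩
    refine ⟨S, Function.Embedding.ext fun i => ?_⟩
    rw [Function.Embedding.smul_apply]
    have key : ∀ p : Projectivization F (Fin 2 → F),
        S • p = g • p := by
      intro p
      induction p using Projectivization.ind with | _ v hv => ?_
      rw [smul_mk, smul_mk, mk_eq_mk_iff', sl_smul_vec, gl_smul_vec]
      exact ⟨r⁻¹, (Matrix.smul_mulVec _ _ _).symm⟩
    rw [key]
    fin_cases i <;> assumption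

end CfsgLib.LineTriple
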